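import Cfsg.Agent.H228.Out.Lin

/-!
# E5, piece (N5): elements of order `8 a b`, `a ∣ q - 1`, `b ∣ q + 1` in dimension ten (helper228)

* `unipD` : the unipotent lemma on a nondegenerate invariant subspace;
* `map_lt` : `N M < M`;
* `chain` : `2 k + dim N^k Y ≤ dim Y`, `2 ≤ dim N^k Y` for `Y ≤ [V, B]`, `N^k Y ≠ 0`;
* `scal` : `dim Y = 2 (k + 1)` : `A` is a scalar on `Y`;
* `not_five` : `Ω(Q)`, `dim V = 10`, has no element of order `8 a b`.
-/

set_option autoImplicit false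
set_option linter.unusedVariables false
set_option linter.unusedSectionVars false

namespace Cfsg.Agent.H228.Out

open Module Finset Cfsg.Agent.H375.Odd Cfsg.Agent.H375.Out

section gen

variable {F : Type*} [Field F] [CharP F 2] {V : Type*} [AddCommGroup V] [Module F V] [FiniteDimensional F V]
  {β : V →ₗ[F] V →ₗ[F] F}

/-- **The unipotent lemma** on a nondegenerate subspace. -/
theorem unipD (hβ : Alt β) {x u : V ≃ₗ[F] V} (hx : x ∈ Isom β) (hu : u ∈ Isom β) (hxu : ∀ v, x (u v) = u (x v)) {R : ℕ}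
    (hR : Odd R) (hxR : x ^ R = 1) {c : ℕ} (huc : u ^ 2 ^ c = 1) {D : Submodule F V} (hDW : D ≤ bW x)
    (hDu : ∀ v ∈ D, u v ∈ D) (hDx : ∀ v ∈ D, x v ∈ D) (hDnd : ∀ u ∈ D, (∀ w ∈ D, β u w = 0) → u = 0) {k : ℕ}
    (hk : finrank F D < 2 * (k + 1)) : ∀ v ∈ D, (Nu u ^ k) v = 0 := by
  classical
  by_contra hcon
  push Not at hcon
  have hex : ∃ k', k ≤ k' ∧ (∃ v ∈ D, (Nu u ^ k') v ≠ 0) ∧ ∀ v ∈ D, (Nu u ^ (k' + 1)) v = 0 := by
    by_contra hno
    push Not at hno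
    have h1 : ∀ i, ∃ v ∈ D, (Nu u ^ (k + i)) v ≠ 0 := by
      intro i
      induction i with
      | zero => exact hcon
      | succ i ih => exact hno (k + i) (by omega) ih
    obtain ⟨v, -, hv⟩ := h1 (2 ^ c)
    apply hv
    rw [pow_add, Nu_pow, huc, Nu_one, mul_zero]
    rfl
  obtain ⟨k', hkk', ⟨v, hv, hv0⟩, hk'⟩ := hex
  set E := D.map (Nu u ^ k') with hE
  have hED : E ≤ D := by
    rintro _ ⟨w, hw, rfl⟩
    exact Nu_mem hDu k' w hw
  have hcom := fun w => Nu_comm hxu k' w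
  have hE2 : 2 ≤ finrank F E := by
    by_contra hlt
    set e := (Nu u ^ k') v with he
    have heE : e ∈ E := ⟨v, hv, rfl⟩
    have hE1 : finrank F E = 1 := by
      have : 0 < finrank F E := by
        rw [Module.finrank_pos_iff_exists_ne_zero]
        exact ⟨⟨e, heE⟩, fun h => hv0 (congrArg Subtype.val h)⟩
      omega
    have hsp : ∀ w ∈ E, ∃ r : F, r • e = w := by
      intro w hw
      obtain ⟨r, hr⟩ := (finrank_eq_one_iff_of_nonzero' (⟨e, heE⟩ : E) (fun h => hv0 (congrArg Subtype.val h))).1 hE1 ⟨w, hw⟩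
      exact ⟨r, congrArg Subtype.val hr⟩
    have hker : ∀ z ∈ D, (Nu u ^ k') z = 0 → β z e = 0 := by
      intro z _ hz
      rw [he, Nu_adj hu, Nu_inv_zero hz, map_zero, LinearMap.zero_apply]
    obtain ⟨w, hw, hwe⟩ : ∃ w ∈ D, β w e ≠ 0 := by
      by_contra hno
      push Not at hno
      apply hv0
      apply hDnd e (hED heE)
      intro w hw
      rw [hβ.symm]
      exact hno w hw
    obtain ⟨lam, hlam⟩ := hsp (x e) ⟨x v, hDx v hv, hcom v⟩
    obtain ⟨r, hr⟩ := hsp ((Nu u ^ k') w) ⟨w, hw, rfl⟩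
    have h1 : β (x w) e = lam * β w e := by
      have h2 := hker (x w - lam • w) (D.sub_mem (hDx w hw) (D.smul_mem _ hw)) (by
        rw [map_sub, map_smul, hcom, ← hr, map_smul, ← hlam, smul_comm, sub_self])
      rw [map_sub, map_smul, LinearMap.sub_apply, LinearMap.smul_apply, smul_eq_mul, sub_eq_zero] at h2
      exact h2
    have h2 : β (x w) (x e) = β w e := hx w e
    rw [← hlam, map_smul, smul_eq_mul, h1, ← mul_assoc] at h2
    have h3 : lam * lam = 1 := mul_right_cancel₀ hwe (by rw [h2, one_mul])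
    have h4 : lam = 1 := by
      have h5 : (lam - 1) * (lam - 1) = 0 := by
        have : (2 : F) = 0 := CharTwo.two_eq_zero
        linear_combination h3 + (1 - lam) * this
      have := mul_self_eq_zero.1 h5
      exact sub_eq_zero.1 this
    rw [h4, one_smul] at hlam
    exact hv0 (disj hR hxR (hDW (hED heE)) hlam.symm)
  have hstep : ∀ i, i ≤ k' → i * finrank F E + finrank F (D.map (Nu u ^ i)) ≤ finrank F D := by
    intro i
    induction i with
    | zero =>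
      intro _
      rw [zero_mul, zero_add, pow_zero, Module.End.one_eq_id, Submodule.map_id]
    | succ i ih =>
      intro hi
      have ih' := ih (by omega)
      have hle : D.map (Nu u ^ (i + 1)) ≤ D.map (Nu u ^ i) := by
        rintro _ ⟨w, hw, rfl⟩
        refine ⟨Nu u w, D.sub_mem (hDu w hw) hw, ?_⟩
        rw [pow_succ]
        rfl
      set g := (Nu u ^ (k' - i)).domRestrict (D.map (Nu u ^ i)) with hg
      have hrange : LinearMap.range g = E := by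
        ext z
        constructor
        · rintro ⟨⟨_, ⟨w, hw, rfl⟩⟩, rfl⟩
          refine ⟨w, hw, ?_⟩
          show (Nu u ^ k') w = (Nu u ^ (k' - i)) ((Nu u ^ i) w)
          rw [← Module.End.mul_apply, ← pow_add, Nat.sub_add_cancel (by omega)]
        · rintro ⟨w, hw, rfl⟩
          refine ⟨⟨(Nu u ^ i) w, ⟨w, hw, rfl⟩⟩, ?_⟩
          show (Nu u ^ (k' - i)) ((Nu u ^ i) w) = (Nu u ^ k') w
          rw [← Module.End.mul_apply, ← pow_add, Nat.sub_add_cancel (by omega)]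
      have hker : (D.map (Nu u ^ (i + 1))).comap (D.map (Nu u ^ i)).subtype ≤ LinearMap.ker g := by
        rintro ⟨z, hz⟩ hz'
        obtain ⟨w, hw, hwz⟩ := hz'
        rw [LinearMap.mem_ker]
        show (Nu u ^ (k' - i)) z = 0
        have : z = (Nu u ^ (i + 1)) w := hwz.symm
        rw [this, ← Module.End.mul_apply, ← pow_add, show k' - i + (i + 1) = k' + 1 by omega]
        exact hk' w hw
      have h1 := LinearMap.finrank_range_add_finrank_ker g
      rw [hrange] at h1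
      have h2 := Submodule.finrank_mono hker
      have h3 := (Submodule.comapSubtypeEquivOfLe hle).finrank_eq
      rw [h3] at h2
      rw [add_mul, one_mul]
      omega
  have h1 := hstep k' le_rfl
  have h2 : k' * 2 ≤ k' * finrank F E := Nat.mul_le_mul_left _ hE2
  have h3 : 2 ≤ finrank F (D.map (Nu u ^ k')) := hE2
  omega

theorem map_map (u : V ≃ₗ[F] V) (Y : Submodule F V) (m : ℕ) : (Y.map (Nu u ^ m)).map (Nu u) = Y.map (Nu u ^ (m + 1)) := by
  rw [← Submodule.map_comp, pow_succ']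
  rfl

/-- `N` strictly decreases nonzero invariant subspaces. -/
theorem map_lt {u : V ≃ₗ[F] V} {c : ℕ} (huc : u ^ 2 ^ c = 1) {M : Submodule F V} (hM : ∀ v ∈ M, u v ∈ M)
    (h0 : M ≠ ⊥) : M.map (Nu u) < M := by
  have hle : M.map (Nu u) ≤ M := by
    rintro _ ⟨w, hw, rfl⟩
    exact M.sub_mem (hM w hw) hw
  refine lt_of_le_of_ne hle fun heq => h0 ?_
  have h1 : ∀ j, M.map (Nu u ^ j) = M := by
    intro j
    induction j with
    | zero => rw [pow_zero, Module.End.one_eq_id, Submodule.map_id]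
    | succ j ih => rw [← map_map, ih, heq]
  rw [← h1 (2 ^ c), eq_bot_iff]
  rintro _ ⟨w, -, rfl⟩
  rw [Nu_pow, huc, Nu_one]
  exact Submodule.zero_mem _

theorem map_inv {u g : V ≃ₗ[F] V} (hg : ∀ v, g (u v) = u (g v)) {Y : Submodule F V} (hY : ∀ v ∈ Y, g v ∈ Y) (j : ℕ) :
    ∀ v ∈ Y.map (Nu u ^ j), g v ∈ Y.map (Nu u ^ j) := by
  rintro _ ⟨w, hw, rfl⟩
  exact ⟨g w, hY w hw, Nu_comm hg j w⟩

theorem map_le {u : V ≃ₗ[F] V} {Y : Submodule F V} (hY : ∀ v ∈ Y, u v ∈ Y) (j : ℕ) : Y.map (Nu u ^ j) ≤ Y := by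
  rintro _ ⟨w, hw, rfl⟩
  exact Nu_mem hY j w hw

theorem map_ne {u : V ≃ₗ[F] V} {Y : Submodule F V} {k : ℕ} (hk : ∃ v ∈ Y, (Nu u ^ k) v ≠ 0) {j : ℕ} (hj : j ≤ k) :
    Y.map (Nu u ^ j) ≠ ⊥ := by
  obtain ⟨v, hv, hv0⟩ := hk
  intro h
  apply hv0
  have h1 : (Nu u ^ j) v ∈ Y.map (Nu u ^ j) := ⟨v, hv, rfl⟩
  rw [h, Submodule.mem_bot] at h1
  rw [show k = (k - j) + j by omega, pow_add]
  show (Nu u ^ (k - j)) ((Nu u ^ j) v) = 0
  rw [h1, map_zero]

end gen

section tor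

variable {F : Type*} [Field F] [Fintype F] [CharP F 2] {V : Type*} [AddCommGroup V] [Module F V]
  [FiniteDimensional F V] {β : V →ₗ[F] V →ₗ[F] F}

/-- the torus type of `B`, `b ∣ q + 1` -/
theorem tor_two {B : V ≃ₗ[F] V} {b : ℕ} (hb : b.Prime) (hb2 : b ≠ 2) (hbq : b ∣ Fintype.card F + 1) (hB : orderOf B = b) :
    Tor B b 0 2 := by
  refine ⟨hb, hb2, by rw [zero_add, pow_one, hB], le_rfl, fun m => ?_⟩
  rw [zero_add, pow_one]
  set q := Fintype.card F with hq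
  have hq1 : 1 ≤ q := Fintype.card_pos
  have h2 : b ∣ q ^ 2 - 1 := by
    obtain ⟨k, hk⟩ : ∃ k, q = k + 1 := ⟨q - 1, by omega⟩
    rw [hk, show (k + 1) ^ 2 = (k + 1 + 1) * k + 1 by ring, Nat.add_sub_cancel]
    exact (hk ▸ hbq).mul_right _
  have h1 : ¬ b ∣ q - 1 := by
    intro h
    have h3 := Nat.dvd_sub hbq h
    rw [show q + 1 - (q - 1) = 2 by omega] at h3
    exact hb2 ((Nat.prime_dvd_prime_iff_eq hb Nat.prime_two).1 h3)
  rw [Lib.Zsigmondy.dvd_pow_sub_one_iff hq1] at h2 ⊢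
  have h3 : orderOf ((q : ℕ) : ZMod b) = 2 := by
    rcases (Nat.dvd_prime Nat.prime_two).1 h2 with h3 | h3
    · exfalso
      apply h1
      rw [← pow_one q, Lib.Zsigmondy.dvd_pow_sub_one_iff hq1, h3]
    · exact h3
  rw [h3]

variable {A B u : V ≃ₗ[F] V} {a b c : ℕ}

/-- the chain of images -/
theorem chain (hB : Tor B b 0 2) (huc : u ^ 2 ^ c = 1) (hBu : ∀ v, B (u v) = u (B v)) {Y : Submodule F V}
    (hY : Y ≤ bW B) (hYB : ∀ v ∈ Y, B v ∈ Y) (hYu : ∀ v ∈ Y, u v ∈ Y) {k : ℕ} (hk : ∃ v ∈ Y, (Nu u ^ k) v ≠ 0) :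
    2 * k + finrank F (Y.map (Nu u ^ k)) ≤ finrank F Y ∧ 2 ≤ finrank F (Y.map (Nu u ^ k)) := by
  have heven : ∀ j, 2 ∣ finrank F (Y.map (Nu u ^ j)) := fun j => hB.dvd (by
    rw [pow_zero, pow_one]
    exact (map_le hYu j).trans hY) (map_inv hBu hYB j)
  have hpos : ∀ j, j ≤ k → 2 ≤ finrank F (Y.map (Nu u ^ j)) := by
    intro j hj
    have h1 : finrank F (Y.map (Nu u ^ j)) ≠ 0 := fun h => map_ne hk hj (Submodule.finrank_eq_zero.1 h)
    obtain ⟨m, hm⟩ := heven j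
    omega
  refine ⟨?_, hpos k le_rfl⟩
  have key : ∀ i, i ≤ k → 2 * i + finrank F (Y.map (Nu u ^ i)) ≤ finrank F Y := by
    intro i
    induction i with
    | zero =>
      intro _
      rw [mul_zero, zero_add, pow_zero, Module.End.one_eq_id, Submodule.map_id]
    | succ i ih =>
      intro hi
      have h1 := ih (by omega)
      have h2 := map_lt huc (map_inv (u := u) (g := u) (fun _ => rfl) hYu i) (map_ne hk (by omega : i ≤ k))
      rw [map_map] at h2
      have h3 := Submodule.finrank_lt_finrank_of_lt h2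
      obtain ⟨m, hm⟩ := heven i
      obtain ⟨m', hm'⟩ := heven (i + 1)
      omega
  exact key k le_rfl

/-- an eigenvector -/
theorem eig (ha : a.Prime) (haq : a ∣ Fintype.card F - 1) (hA : A ^ a = 1) {Y : Submodule F V}
    (hYA : ∀ v ∈ Y, A v ∈ Y) (h0 : Y ≠ ⊥) : ∃ (α : F) (v : V), v ∈ Y ∧ v ≠ 0 ∧ A v = α • v ∧ α ^ a = 1 := by
  classical
  have hnt : Nontrivial Y := Submodule.nontrivial_iff_ne_bot.2 h0
  set f : Module.End F Y := (A : V →ₗ[F] V).restrict hYA with hf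
  have hfa : ∀ j : ℕ, ∀ v : Y, ((f ^ j) v : V) = (A ^ j) v := by
    intro j
    induction j with
    | zero => intro v; rfl
    | succ j ih =>
      intro v
      rw [pow_succ, pow_succ]
      exact ih (f v)
  have hfa1 : f ^ a = 1 := by
    apply LinearMap.ext
    intro v
    apply Subtype.ext
    rw [hfa, hA]
    rfl
  obtain ⟨ζ, hζ⟩ : ∃ ζ : F, IsPrimitiveRoot ζ a := by
    have hcard : Nat.card Fˣ = Fintype.card F - 1 := by
      rw [Nat.card_eq_fintype_card, Fintype.card_units]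
    have := Fact.mk ha
    obtain ⟨g, hg⟩ := exists_prime_orderOf_dvd_card' (G := Fˣ) a (by rw [hcard]; exact haq)
    refine ⟨(g : F), ?_⟩
    rw [IsPrimitiveRoot.coe_units_iff, ← hg]
    exact IsPrimitiveRoot.orderOf g
  have hsplit : ((Polynomial.X ^ a - 1 : Polynomial F)).Splits := Polynomial.X_pow_sub_one_splits hζ
  have hmin : minpoly F f ∣ (Polynomial.X ^ a - 1 : Polynomial F) := by
    apply minpoly.dvd
    rw [map_sub, map_pow, Polynomial.aeval_X, map_one, hfa1, sub_self]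
  have hX0 : (Polynomial.X ^ a - 1 : Polynomial F) ≠ 0 := Polynomial.X_pow_sub_C_ne_zero ha.pos 1
  have hms := hsplit.of_dvd hX0 hmin
  have hdeg : (minpoly F f).degree ≠ 0 := (minpoly.degree_pos (Algebra.IsIntegral.isIntegral f)).ne'
  obtain ⟨α, hα⟩ := hms.exists_eval_eq_zero hdeg
  have h1 : f.HasEigenvalue α := Module.End.hasEigenvalue_iff_isRoot.2 hα
  obtain ⟨v, hv⟩ := h1.exists_hasEigenvector
  have h2 := hv.apply_eq_smul
  have h3 : A (v : V) = α • (v : V) := congrArg Subtype.val h2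
  have hv0 : (v : V) ≠ 0 := fun h => hv.2 (Subtype.ext h)
  refine ⟨α, v, v.2, hv0, h3, ?_⟩
  have h4 : ∀ j : ℕ, (A ^ j) (v : V) = α ^ j • (v : V) := by
    intro j
    induction j with
    | zero => rw [pow_zero, pow_zero, one_smul]; rfl
    | succ j ih =>
      rw [pow_succ, pow_succ, mul_smul]
      show (A ^ j) (A v) = _
      rw [h3, map_smul, ih, smul_comm]
  have h5 := h4 a
  rw [hA] at h5
  have h6 : (α ^ a - 1) • (v : V) = 0 := by
    rw [sub_smul, one_smul, ← h5]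
    exact sub_self _
  rcases smul_eq_zero.1 h6 with h7 | h7
  · exact sub_eq_zero.1 h7
  · exact absurd h7 hv0

/-- the norm of `α⁻¹ A` -/
noncomputable def nrm (A : V ≃ₗ[F] V) (a : ℕ) (α : F) : Module.End F V :=
  ∑ i ∈ range a, (α⁻¹) ^ i • ((A : V →ₗ[F] V) ^ i)

theorem pow_end (A : V ≃ₗ[F] V) (i : ℕ) (v : V) : (((A : V →ₗ[F] V) ^ i) v) = (A ^ i) v := by
  induction i generalizing v with
  | zero => rfl
  | succ i ih => rw [pow_succ, pow_succ]; exact ih _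

theorem nrm_apply (α : F) (v : V) : nrm A a α v = ∑ i ∈ range a, (α⁻¹) ^ i • (A ^ i) v := by
  rw [nrm, LinearMap.sum_apply]
  refine sum_congr rfl fun i _ => ?_
  rw [LinearMap.smul_apply, pow_end]

theorem nrm_eig (hA : A ^ a = 1) {α : F} (hα : α ^ a = 1) (hα0 : α ≠ 0) (v : V) : A (nrm A a α v) = α • nrm A a α v := by
  rw [nrm_apply, map_sum, smul_sum]
  have h1 : ∀ i, A ((α⁻¹) ^ i • (A ^ i) v) = α • ((α⁻¹) ^ (i + 1) • (A ^ (i + 1)) v) := by
    intro i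
    rw [map_smul, smul_smul, pow_succ (α⁻¹), mul_comm α, mul_assoc, inv_mul_cancel₀ hα0, mul_one]
    congr 1
    show A ((A ^ i) v) = (A ^ (i + 1)) v
    rw [pow_succ']
    rfl
  rw [sum_congr rfl fun i _ => h1 i, ← smul_sum, ← smul_sum]
  congr 1
  have h2 := sum_range_succ' (fun i => (α⁻¹) ^ i • (A ^ i) v) a
  rw [sum_range_succ] at h2
  rw [hA, inv_pow, hα, inv_one, pow_zero, pow_zero, one_smul] at h2
  exact (add_right_cancel h2).symm

/-- `α⁻¹ A - 1` and powers -/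
theorem pow_sub_mem {α : F} (hα0 : α ≠ 0) {Z : Submodule F V} (hZA : ∀ v ∈ Z, A v ∈ Z) {v : V}
    (hv : A v - α • v ∈ Z) (i : ℕ) : (α⁻¹) ^ i • (A ^ i) v - v ∈ Z := by
  induction i with
  | zero => rw [pow_zero, pow_zero, one_smul]; show v - v ∈ Z; rw [sub_self]; exact Z.zero_mem
  | succ i ih =>
    have h1 : (α⁻¹) ^ (i + 1) • (A ^ (i + 1)) v - v =
        (α⁻¹) • A ((α⁻¹) ^ i • (A ^ i) v - v) + (α⁻¹) • (A v - α • v) := by
      rw [map_sub, map_smul, smul_sub, smul_sub, smul_smul, smul_smul, inv_mul_cancel₀ hα0, one_smul, pow_succ',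
        pow_succ' A]
      show _ • A ((A ^ i) v) - v = _
      abel
    rw [h1]
    exact Z.add_mem (Z.smul_mem _ (hZA _ ih)) (Z.smul_mem _ hv)

/-- **`A` is a scalar on `Y`.** -/
theorem scal (hB : Tor B b 0 2) (huc : u ^ 2 ^ c = 1) (hBu : ∀ v, B (u v) = u (B v)) (hAu : ∀ v, A (u v) = u (A v))
    (hAB : ∀ v, B (A v) = A (B v)) (ha : a.Prime) (ha2 : a ≠ 2) (haq : a ∣ Fintype.card F - 1) (hA : A ^ a = 1)
    {Y : Submodule F V}
    (hY : Y ≤ bW B) (hYB : ∀ v ∈ Y, B v ∈ Y) (hYu : ∀ v ∈ Y, u v ∈ Y) (hYA : ∀ v ∈ Y, A v ∈ Y) {k : ℕ}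
    (hk : ∃ v ∈ Y, (Nu u ^ k) v ≠ 0) (hdim : finrank F Y = 2 * (k + 1)) : ∃ α : F, ∀ v ∈ Y, A v = α • v := by
  obtain ⟨h1, h2⟩ := chain hB huc hBu hY hYB hYu hk
  set M := Y.map (Nu u ^ k) with hM
  have hMA := map_inv hAu hYA k
  have hMB := map_inv hBu hYB k
  have hMY := map_le hYu k
  obtain ⟨α, v, hv, hv0, hvα, hαa⟩ := eig ha haq hA hMA (map_ne hk le_rfl)
  have hα0 : α ≠ 0 := by
    rintro rfl
    rw [zero_pow ha.ne_zero] at hαa
    exact zero_ne_one hαa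
  -- `A = α` on `M`
  set K : Submodule F V := LinearMap.ker ((A : V →ₗ[F] V) - α • LinearMap.id) with hK
  have hmemK : ∀ w, w ∈ K ↔ A w = α • w := by
    intro w
    rw [hK, LinearMap.mem_ker, LinearMap.sub_apply, LinearMap.smul_apply, LinearMap.id_apply, sub_eq_zero]
    rfl
  have hMK : M ≤ K := by
    have h3 : 2 ∣ finrank F (M ⊓ K : Submodule F V) := hB.dvd (by
      rw [pow_zero, pow_one]
      exact inf_le_left.trans (hMY.trans hY)) (by
      rintro w ⟨hw1, hw2⟩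
      refine ⟨hMB w hw1, ?_⟩
      rw [SetLike.mem_coe, hmemK] at hw2 ⊢
      rw [← hAB, hw2, map_smul])
    have h4 : finrank F (M ⊓ K : Submodule F V) ≠ 0 := by
      intro h
      have h5 := Submodule.finrank_eq_zero.1 h
      have h6 : v ∈ M ⊓ K := ⟨hv, (hmemK v).2 hvα⟩
      rw [h5, Submodule.mem_bot] at h6
      exact hv0 h6
    have h5 : M ⊓ K = M := Submodule.eq_of_le_of_finrank_le inf_le_left (by
      obtain ⟨m, hm⟩ := h3
      omega)
    rw [← h5]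
    exact inf_le_right
  refine ⟨α, ?_⟩
  -- `E`
  have hAinv : ∀ (i : ℕ) (w : V), w ∈ Y → (A ^ i) w ∈ Y := by
    intro i
    induction i with
    | zero => intro w hw; exact hw
    | succ i ih => intro w hw; rw [pow_succ]; exact ih _ (hYA w hw)
  have hTY : ∀ w ∈ Y, nrm A a α w ∈ Y := by
    intro w hw
    rw [nrm_apply]
    exact Y.sum_mem fun i _ => Y.smul_mem _ (hAinv i w hw)
  have hk' : ∃ w ∈ Y ⊓ K, (Nu u ^ k) w ≠ 0 := by
    obtain ⟨w, hw, hw0⟩ := hk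
    refine ⟨nrm A a α w, ⟨hTY w hw, (hmemK _).2 (nrm_eig hA hαa hα0 w)⟩, ?_⟩
    -- `N^k (T w) = N^k w`
    set Z : Submodule F V := LinearMap.ker (Nu u ^ k) with hZ
    have hZA : ∀ z ∈ Z, A z ∈ Z := by
      intro z hz
      rw [hZ, LinearMap.mem_ker] at hz ⊢
      rw [Nu_comm hAu, hz, map_zero]
    have h3 : A w - α • w ∈ Z := by
      rw [hZ, LinearMap.mem_ker, map_sub, map_smul, Nu_comm hAu]
      have h4 := (hmemK _).1 (hMK ⟨w, hw, rfl⟩)
      rw [h4, sub_self]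
    have h4 : nrm A a α w - w ∈ Z := by
      have h5 : nrm A a α w - w = ∑ i ∈ range a, ((α⁻¹) ^ i • (A ^ i) w - w) := by
        rw [sum_sub_distrib, ← nrm_apply, sum_const, card_range, ← Nat.cast_smul_eq_nsmul F]
        have h6 : ((a : ℕ) : F) = 1 := by
          obtain ⟨j, hj⟩ := ha.odd_of_ne_two ha2
          rw [hj, Nat.cast_add, Nat.cast_mul, Nat.cast_two, CharTwo.two_eq_zero, zero_mul, zero_add, Nat.cast_one]
        rw [h6, one_smul]
      rw [h5]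
      exact Z.sum_mem fun i _ => pow_sub_mem hα0 hZA h3 i
    rw [hZ, LinearMap.mem_ker, map_sub, sub_eq_zero] at h4
    rw [h4]
    exact hw0
  obtain ⟨h3, h4⟩ := chain hB huc hBu (Y := Y ⊓ K) (inf_le_left.trans hY) (by
      rintro w ⟨hw1, hw2⟩
      refine ⟨hYB w hw1, ?_⟩
      rw [SetLike.mem_coe, hmemK] at hw2 ⊢
      rw [← hAB, hw2, map_smul]) (by
      rintro w ⟨hw1, hw2⟩
      refine ⟨hYu w hw1, ?_⟩
      rw [SetLike.mem_coe, hmemK] at hw2 ⊢
      rw [hAu, hw2, map_smul]) hk'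
  have h5 : Y ⊓ K = Y := Submodule.eq_of_le_of_finrank_le inf_le_left (by omega)
  intro w hw
  rw [← h5] at hw
  exact (hmemK w).1 hw.2

/-- a scalar isometry on a nondegenerate subspace is trivial -/
theorem scal_one (hA : A ∈ Isom β) {Y : Submodule F V} (hYnd : ∀ v ∈ Y, (∀ w ∈ Y, β v w = 0) → v = 0) {α : F}
    (h : ∀ v ∈ Y, A v = α • v) : ∀ v ∈ Y, A v = v := by
  by_cases h0 : ∀ v ∈ Y, ∀ w ∈ Y, β v w = 0
  · intro v hv
    rw [hYnd v hv (h0 v hv), map_zero]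
  · push Not at h0
    obtain ⟨v, hv, w, hw, hvw⟩ := h0
    have h1 := hA v w
    rw [h v hv, h w hw, map_smul, map_smul, LinearMap.smul_apply, smul_eq_mul, smul_eq_mul, ← mul_assoc] at h1
    have h3 : α * α = 1 := mul_right_cancel₀ hvw (by rw [h1, one_mul])
    have h4 : α = 1 := by
      have h5 : (α - 1) * (α - 1) = 0 := by
        have : (2 : F) = 0 := CharTwo.two_eq_zero
        linear_combination h3 + (1 - α) * this
      exact sub_eq_zero.1 (mul_self_eq_zero.1 h5)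
    intro z hz
    rw [h z hz, h4, one_smul]

end tor

section main

open QuadraticMap Cfsg
open Cfsg.Agent.LieClassical.OrthCount Cfsg.Agent.LieClassical.OmegaReindex Cfsg.Agent.LieClassical
open Cfsg.Agent.ClassicalGeometry

variable {F : Type*} [Field F] [Fintype F] [CharP F 2] {ι : Type} [Fintype ι] [DecidableEq ι]
  {Q : QuadraticForm F (ι → F)}

/-- **(N5)** In dimension ten there is no element of order `8 a b` in `Ω(Q)`, `a ∣ q - 1`, `b ∣ q + 1`. -/
theorem not_five (hQ : (polarBilin Q).Nondegenerate) (hι : Fintype.card ι = 10) {a b : ℕ} (ha : a.Prime) (ha2 : a ≠ 2)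
    (haq : a ∣ Fintype.card F - 1) (hb : b.Prime) (hb2 : b ≠ 2) (hbq : b ∣ Fintype.card F + 1)
    {y : (ι → F) ≃ₗ[F] (ι → F)} (hy : y ∈ Om Q) : orderOf y ≠ 8 * (a * b) := by
  intro ho
  have hev : Even (Fintype.card ι) := by rw [hι]; decide
  have hdim : finrank F (ι → F) = 10 := by rw [finrank_fintype_fun_eq_card, hι]
  have hβ := alt_of hQ
  have hyβ := OQ_le (qf_of Q) (Om_le hy)
  have hpar : ∀ g ∈ Om Q, Even (finrank F (bW g)) := by
    intro g hg
    have h1 := ((mem_Om hQ (by omega) hev).1 hg).2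
    have h2 := finrank_bW_add (F := F) g
    rw [hdim] at h2
    obtain ⟨k, hk⟩ := h1
    exact ⟨5 - k, by omega⟩
  generalize polarBilin Q = β at hβ hyβ
  have hao := ha.odd_of_ne_two ha2
  have hbo := hb.odd_of_ne_two hb2
  -- the parts
  have hord : ∀ m n : ℕ, 0 < m → orderOf y = m * n → orderOf (y ^ m) = n := by
    intro m n hm hmn
    rw [orderOf_pow_of_dvd hm.ne' (by rw [hmn]; exact dvd_mul_right _ _), hmn, Nat.mul_div_cancel_left _ hm]
  obtain ⟨A, hA⟩ : ∃ A, A = y ^ (8 * b) := ⟨_, rfl⟩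
  obtain ⟨B, hB⟩ : ∃ B, B = y ^ (8 * a) := ⟨_, rfl⟩
  obtain ⟨u, hu⟩ : ∃ u, u = y ^ (a * b) := ⟨_, rfl⟩
  have hAo : orderOf A = a := by
    rw [hA]
    exact hord _ _ (by have := hb.pos; omega) (by rw [ho]; ring)
  have hBo : orderOf B = b := by
    rw [hB]
    exact hord _ _ (by have := ha.pos; omega) (by rw [ho]; ring)
  have huo : orderOf u = 8 := by
    rw [hu]
    exact hord _ _ (Nat.mul_pos ha.pos hb.pos) (by rw [ho]; ring)
  have hcomm : ∀ i j : ℕ, ∀ v, (y ^ i) ((y ^ j) v) = (y ^ j) ((y ^ i) v) := by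
    intro i j v
    show (y ^ i * y ^ j) v = (y ^ j * y ^ i) v
    rw [← pow_add, ← pow_add, add_comm]
  have hAβ : A ∈ Isom β := by rw [hA]; exact (Isom β).pow_mem hyβ _
  have hBβ : B ∈ Isom β := by rw [hB]; exact (Isom β).pow_mem hyβ _
  have huβ : u ∈ Isom β := by rw [hu]; exact (Isom β).pow_mem hyβ _
  have huO : u ∈ Om Q := by rw [hu]; exact (Om Q).pow_mem hy _
  have hBu : ∀ v, B (u v) = u (B v) := by rw [hB, hu]; exact hcomm _ _
  have hAu : ∀ v, A (u v) = u (A v) := by rw [hA, hu]; exact hcomm _ _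
  have hAB : ∀ v, B (A v) = A (B v) := by rw [hA, hB]; exact hcomm _ _
  have hAa : A ^ a = 1 := by rw [← hAo, pow_orderOf_eq_one]
  have hBb : B ^ b = 1 := by rw [← hBo, pow_orderOf_eq_one]
  have hu8 : u ^ 2 ^ 3 = 1 := by rw [show 2 ^ 3 = 8 by norm_num, ← huo, pow_orderOf_eq_one]
  have hA1 : A ≠ 1 := by
    rintro rfl
    rw [orderOf_one] at hAo
    exact ha.one_lt.ne hAo
  have hB1 : B ≠ 1 := by
    rintro rfl
    rw [orderOf_one] at hBo
    exact hb.one_lt.ne hBo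
  clear hA hB hu
  have hT := tor_two hb hb2 hbq hBo
  -- `N ^ 4`
  have hu4 : u ^ 4 ≠ 1 := by
    intro h
    have := orderOf_dvd_of_pow_eq_one h
    rw [huo] at this
    exact absurd (Nat.le_of_dvd (by norm_num) this) (by norm_num)
  have hN4 : Nu u ^ 4 = Nu (u ^ 4) := by
    have := Nu_pow u 2
    norm_num at this
    exact this
  obtain ⟨v0, hv0⟩ : ∃ v, (Nu u ^ 4) v ≠ 0 := by
    by_contra hcon
    push Not at hcon
    apply hu4
    apply LinearEquiv.ext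
    intro v
    have h1 := hcon v
    rw [hN4, Nu_apply, sub_eq_zero] at h1
    exact h1
  -- the subspaces
  set D1 := bW B with hD1
  set D2 : Submodule F (ι → F) := bV B ⊓ bW A with hD2
  set D3 : Submodule F (ι → F) := bV B ⊓ bV A with hD3
  have hsp : ∀ z ∈ bV B, ∃ w2 ∈ D2, ∃ w3 ∈ D3, z = w2 + w3 := by
    intro z hz
    obtain ⟨w2, hw2, w3, hw3, rfl⟩ := exists_split hao hAa z
    have h1 : B w2 ∈ bW A := bW_inv hAB w2 hw2
    have h2 : B w3 ∈ bV A := bV_inv hAB w3 hw3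
    have h3 := mem_bV.1 hz
    rw [map_add] at h3
    have h4 : B w2 - w2 = w3 - B w3 := by
      have h5 : B w2 = w2 + w3 - B w3 := by rw [← h3]; abel
      rw [h5]; abel
    have h5 : B w2 - w2 = 0 := by
      apply disj hao hAa ((bW A).sub_mem h1 hw2)
      rw [h4]
      exact mem_bV.1 ((bV A).sub_mem hw3 h2)
    have h6 : B w2 = w2 := sub_eq_zero.1 h5
    have h7 : B w3 = w3 := by
      rw [h6] at h3
      exact add_left_cancel h3
    exact ⟨w2, ⟨mem_bV.2 h6, hw2⟩, w3, ⟨mem_bV.2 h7, hw3⟩, rfl⟩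
  have hsp3 : ∀ v, ∃ w1 ∈ D1, ∃ w2 ∈ D2, ∃ w3 ∈ D3, v = w1 + (w2 + w3) := by
    intro v
    obtain ⟨w1, hw1, z, hz, rfl⟩ := exists_split hbo hBb v
    obtain ⟨w2, hw2, w3, hw3, rfl⟩ := hsp z hz
    exact ⟨w1, hw1, w2, hw2, w3, hw3, rfl⟩
  have hd1 : finrank F D1 + finrank F (bV B) = 10 := by rw [hD1, finrank_bW_add, hdim]
  have hd23 : finrank F D2 + finrank F D3 = finrank F (bV B) := by
    have h1 := Submodule.finrank_sup_add_finrank_inf_eq D2 D3
    have h2 : D2 ⊔ D3 = bV B := by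
      apply le_antisymm (sup_le inf_le_left inf_le_left)
      intro z hz
      obtain ⟨w2, hw2, w3, hw3, rfl⟩ := hsp z hz
      exact Submodule.add_mem_sup hw2 hw3
    have h3 : D2 ⊓ D3 = ⊥ := by
      rw [eq_bot_iff]
      rintro z ⟨⟨-, hz⟩, -, hz'⟩
      exact (Submodule.mem_bot F).2 (disj hao hAa hz (mem_bV.1 hz'))
    rw [h2, h3, finrank_bot, add_zero] at h1
    exact h1.symm
  -- nondegeneracy
  have hnd1 : ∀ v ∈ D1, (∀ w ∈ D1, β v w = 0) → v = 0 := nd_bW hβ hBβ hbo hBb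
  have hnd2 : ∀ v ∈ D2, (∀ w ∈ D2, β v w = 0) → v = 0 := by
    intro v hv h
    apply hβ.nd
    intro w
    obtain ⟨w1, hw1, w2, hw2, w3, hw3, rfl⟩ := hsp3 w
    rw [map_add, map_add, h w2 hw2, hβ.symm v w1, orth hBβ hw1 hv.1, orth hAβ hv.2 hw3.2, zero_add, zero_add]
  have he1 : Even (finrank F D1) := even_bW hβ hBβ hbo hBb
  have he2 : Even (finrank F D2) := Cfsg.Agent.H375.CovTwo.even_of_alt D2 (fun w _ => hβ.alt w) hnd2
  have hp1 : finrank F D1 ≠ 0 := fun h => bW_ne_bot hB1 (Submodule.finrank_eq_zero.1 h)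
  -- invariance
  have hD1B : ∀ v ∈ D1, B v ∈ D1 := bW_inv fun _ => rfl
  have hD1A : ∀ v ∈ D1, A v ∈ D1 := bW_inv fun v => (hAB v).symm
  have hD1u : ∀ v ∈ D1, u v ∈ D1 := bW_inv fun v => (hBu v).symm
  have hD2A : ∀ v ∈ D2, A v ∈ D2 := fun v hv => ⟨bV_inv (fun v => (hAB v).symm) v hv.1, bW_inv (fun _ => rfl) v hv.2⟩
  have hD2u : ∀ v ∈ D2, u v ∈ D2 := fun v hv =>
    ⟨bV_inv (fun v => (hBu v).symm) v hv.1, bW_inv (fun v => (hAu v).symm) v hv.2⟩
  have hD3u : ∀ v ∈ D3, u v ∈ D3 := fun v hv =>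
    ⟨bV_inv (fun v => (hBu v).symm) v hv.1, bV_inv (fun v => (hAu v).symm) v hv.2⟩
  -- `A` is not trivial on `D1` if `D2 = 0`
  have hAone : (∀ v ∈ D1, A v = v) → finrank F D2 = 0 → False := by
    intro h h0
    apply hA1
    apply LinearEquiv.ext
    intro v
    obtain ⟨w1, hw1, w2, hw2, w3, hw3, rfl⟩ := hsp3 v
    rw [Submodule.finrank_eq_zero.1 h0, Submodule.mem_bot] at hw2
    rw [hw2, zero_add, map_add, h w1 hw1, mem_bV.1 hw3.2]
    rfl
  have hscal : ∀ k, (∃ v ∈ D1, (Nu u ^ k) v ≠ 0) → finrank F D1 = 2 * (k + 1) → finrank F D2 = 0 → False := by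
    intro k hk hd h0
    obtain ⟨α, hα⟩ := scal hT hu8 hBu hAu hAB ha ha2 haq hAa (Y := D1) le_rfl hD1B hD1u hD1A hk hd
    exact hAone (scal_one hAβ hnd1 hα) h0
  -- `N ^ 4 = 0` on `D1`, `D2`
  have hlt1 : finrank F D1 < 10 := by
    by_contra hge
    have h10 : finrank F D1 = 10 := by omega
    have htop : D1 = ⊤ := Submodule.eq_top_of_finrank_eq (by rw [h10, hdim])
    exact hscal 4 ⟨v0, by rw [htop]; trivial, hv0⟩ (by rw [h10]) (by omega)
  have h41 : ∀ v ∈ D1, (Nu u ^ 4) v = 0 :=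
    unipD (D := D1) hβ hBβ huβ hBu hbo hBb hu8 le_rfl hD1u hD1B hnd1 (by omega)
  have h42 : ∀ v ∈ D2, (Nu u ^ 4) v = 0 :=
    unipD (D := D2) hβ hAβ huβ hAu hao hAa hu8 inf_le_right hD2u hD2A hnd2 (by omega)
  have h43 : ∀ v : ι → F, ∃ w3 ∈ D3, (Nu u ^ 4) v = (Nu u ^ 4) w3 := by
    intro v
    obtain ⟨w1, hw1, w2, hw2, w3, hw3, rfl⟩ := hsp3 v
    exact ⟨w3, hw3, by rw [map_add, map_add, h41 w1 hw1, h42 w2 hw2, zero_add, zero_add]⟩
  obtain ⟨w0, hw0, hw0'⟩ := h43 v0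
  rw [hw0'] at hv0
  have hd3 : 5 ≤ finrank F D3 := by
    by_contra hlt
    exact hv0 (nil_of_finrank hD3u hu8 (d := 4) (by omega) w0 hw0)
  have hk4 : ∃ v ∈ D3, (Nu u ^ 4) v ≠ 0 := ⟨w0, hw0, hv0⟩
  -- `N = 0` on `D1`, `D2`, `dim D3 = 6`
  obtain ⟨h11, h12, h6⟩ : (∀ v ∈ D1, (Nu u ^ 1) v = 0) ∧ (∀ v ∈ D2, (Nu u ^ 1) v = 0) ∧ finrank F D3 = 6 := by
    obtain ⟨m1, hm1⟩ := he1
    obtain ⟨m2, hm2⟩ := he2
    have hcase : (finrank F D1 = 4 ∧ finrank F D2 = 0 ∧ finrank F D3 = 6) ∨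
        (finrank F D1 = 2 ∧ finrank F D2 = 2 ∧ finrank F D3 = 6) ∨
        (finrank F D1 = 2 ∧ finrank F D2 = 0 ∧ finrank F D3 = 8) := by omega
    rcases hcase with ⟨c1, c2, c3⟩ | ⟨c1, c2, c3⟩ | ⟨c1, c2, c3⟩
    · refine ⟨?_, ?_, c3⟩
      · by_contra hcon
        push Not at hcon
        exact hscal 1 hcon (by rw [c1]) c2
      · intro v hv
        rw [Submodule.finrank_eq_zero.1 c2, Submodule.mem_bot] at hv
        rw [hv, map_zero]
    · refine ⟨?_, ?_, c3⟩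
      · exact unipD (D := D1) hβ hBβ huβ hBu hbo hBb hu8 le_rfl hD1u hD1B hnd1 (by omega)
      · exact unipD (D := D2) hβ hAβ huβ hAu hao hAa hu8 inf_le_right hD2u hD2A hnd2 (by omega)
    · exfalso
      refine hscal 0 ?_ (by rw [c1]) c2
      obtain ⟨v, hv, hv1⟩ := (Submodule.ne_bot_iff _).1 (bW_ne_bot hB1)
      exact ⟨v, hv, by rw [pow_zero]; exact hv1⟩
  -- the ranks
  have hr1 : bW u = D3.map (Nu u ^ 1) := by
    apply le_antisymm
    · rintro _ ⟨v, rfl⟩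
      obtain ⟨w1, hw1, w2, hw2, w3, hw3, rfl⟩ := hsp3 v
      refine ⟨w3, hw3, ?_⟩
      have h1 : (Nu u ^ 1) (w1 + (w2 + w3)) = (Nu u ^ 1) w3 := by
        rw [map_add, map_add, h11 w1 hw1, h12 w2 hw2, zero_add, zero_add]
      rw [← h1, pow_one]
      rfl
    · rintro _ ⟨v, -, rfl⟩
      rw [pow_one]
      exact sub_mem_bW u v
  have hr4 : bW (u ^ 4) = D3.map (Nu u ^ 4) := by
    apply le_antisymm
    · rintro _ ⟨v, rfl⟩
      obtain ⟨w3, hw3, h1⟩ := h43 v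
      refine ⟨w3, hw3, ?_⟩
      rw [← h1, hN4]
      rfl
    · rintro _ ⟨v, -, rfl⟩
      rw [hN4]
      exact sub_mem_bW (u ^ 4) v
  have hs : ∀ j, j ≤ 4 → finrank F (D3.map (Nu u ^ (j + 1))) < finrank F (D3.map (Nu u ^ j)) := by
    intro j hj
    have h1 := map_lt hu8 (map_inv (u := u) (g := u) (fun _ => rfl) hD3u j) (map_ne hk4 hj)
    rw [map_map] at h1
    exact Submodule.finrank_lt_finrank_of_lt h1
  have e0 : finrank F (D3.map (Nu u ^ 0)) = 6 := by rw [pow_zero, Module.End.one_eq_id, Submodule.map_id, h6]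
  have s0 : finrank F (D3.map (Nu u ^ 1)) < _ := hs 0 (by norm_num)
  have s1 : finrank F (D3.map (Nu u ^ 2)) < _ := hs 1 (by norm_num)
  have s2 : finrank F (D3.map (Nu u ^ 3)) < _ := hs 2 (by norm_num)
  have s3 : finrank F (D3.map (Nu u ^ 4)) < _ := hs 3 (by norm_num)
  have p1 := hpar u huO
  have p4 := hpar (u ^ 4) ((Om Q).pow_mem huO _)
  rw [hr1] at p1
  rw [hr4] at p4
  have n4 : finrank F (D3.map (Nu u ^ 4)) ≠ 0 := fun h => map_ne hk4 le_rfl (Submodule.finrank_eq_zero.1 h)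
  obtain ⟨k1, hk1⟩ := p1
  obtain ⟨k4, hk4'⟩ := p4
  omega

end main

end Cfsg.Agent.H228.Out
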